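import Mathlib
import Cfsg.Agent.Lib.Helper79.CS3.EndDefs

/-!
# CS3 (S4284), part END, package [CENT]
-/

set_option autoImplicit false

namespace Cfsg.Agent.Lib.Helper10.CS3

open Cfsg.Agent.Lib.Helper81.CS3 Cfsg.Agent.Lib.Helper79.CS3
open scoped Pointwise

universe u

theorem pkgCent : PkgCent.{u} := by
  intro G _ _ Q L hnorm hinf w hw
  have hmemC : ∀ g : G, g ∈ Subgroup.centralizer ({w} : Set G) ↔ g * w = w * g :=
    fun g => Subgroup.mem_centralizer_singleton_iff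
  let f : (↥(Subgroup.centralizer ({w} : Set G) ⊓ Q)) × (↥(Subgroup.centralizer ({w} : Set G) ⊓ L)) →
      ↥(Subgroup.centralizer ({w} : Set G) ⊓ (Q ⊔ L)) := fun x =>
    ⟨x.1.1 * x.2.1, ⟨(Subgroup.centralizer ({w} : Set G)).mul_mem x.1.2.1 x.2.2.1,
      Subgroup.mul_mem_sup x.1.2.2 x.2.2.2⟩⟩
  have hinj : Function.Injective f := by
    rintro ⟨⟨q, hq⟩, ⟨l, hl⟩⟩ ⟨⟨q', hq'⟩, ⟨l', hl'⟩⟩ h
    have h1 : q * l = q' * l' := congrArg Subtype.val h
    have h2 : q'⁻¹ * q = l' * l⁻¹ := by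
      calc q'⁻¹ * q = q'⁻¹ * (q * l) * l⁻¹ := by group
        _ = q'⁻¹ * (q' * l') * l⁻¹ := by rw [h1]
        _ = l' * l⁻¹ := by group
    have h3 : q'⁻¹ * q ∈ Q ⊓ L :=
      ⟨Q.mul_mem (Q.inv_mem hq'.2) hq.2, by rw [h2]; exact L.mul_mem hl'.2 (L.inv_mem hl.2)⟩
    rw [hinf, Subgroup.mem_bot] at h3
    have hqq : q = q' := (inv_mul_eq_one.mp h3).symm
    have hll : l = l' := by
      rw [h3] at h2
      exact (mul_inv_eq_one.mp h2.symm).symm
    subst hqq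
    subst hll
    rfl
  have hsurj : Function.Surjective f := by
    rintro ⟨g, hgC, hgQL⟩
    have hg' : g ∈ (Q : Set G) * (L : Set G) := by
      rw [← Subgroup.coe_mul_of_right_le_normalizer_left Q L (Subgroup.le_normalizer_iff.mpr hnorm)]
      exact hgQL
    obtain ⟨q, hq, l, hl, rfl⟩ := Set.mem_mul.mp hg'
    have hcomm : q * l * w = w * (q * l) := (hmemC _).mp hgC
    have hconj : q * (l * w * l⁻¹) * q⁻¹ = w := by
      calc q * (l * w * l⁻¹) * q⁻¹ = (q * l * w) * (q * l)⁻¹ := by group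
        _ = w * (q * l) * (q * l)⁻¹ := by rw [hcomm]
        _ = w := by group
    have hw' : l * w * l⁻¹ ∈ L := L.mul_mem (L.mul_mem hl hw) (L.inv_mem hl)
    have hinQ : w * (l * w * l⁻¹)⁻¹ ∈ Q := by
      have h1 : (l * w * l⁻¹) * q⁻¹ * (l * w * l⁻¹)⁻¹ ∈ Q := hnorm _ hw' _ (Q.inv_mem hq)
      have h2 : w * (l * w * l⁻¹)⁻¹ = q * ((l * w * l⁻¹) * q⁻¹ * (l * w * l⁻¹)⁻¹) := by
        calc w * (l * w * l⁻¹)⁻¹ = (q * (l * w * l⁻¹) * q⁻¹) * (l * w * l⁻¹)⁻¹ := by rw [hconj]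
          _ = q * ((l * w * l⁻¹) * q⁻¹ * (l * w * l⁻¹)⁻¹) := by group
      rw [h2]
      exact Q.mul_mem hq h1
    have hinL : w * (l * w * l⁻¹)⁻¹ ∈ L := L.mul_mem hw (L.inv_mem hw')
    have h1 : w * (l * w * l⁻¹)⁻¹ = 1 := by
      have h0 : w * (l * w * l⁻¹)⁻¹ ∈ Q ⊓ L := ⟨hinQ, hinL⟩
      rwa [hinf, Subgroup.mem_bot] at h0
    have hweq : w = l * w * l⁻¹ := mul_inv_eq_one.mp h1
    have hlw : l * w = w * l := by
      calc l * w = (l * w * l⁻¹) * l := by group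
        _ = w * l := by rw [← hweq]
    have hqw : q * w = w * q := by
      have h0 : q * w * l = w * q * l := by
        calc q * w * l = q * (w * l) := by group
          _ = q * (l * w) := by rw [hlw]
          _ = q * l * w := by group
          _ = w * (q * l) := hcomm
          _ = w * q * l := by group
      exact mul_right_cancel h0
    exact ⟨(⟨q, (hmemC q).mpr hqw, hq⟩, ⟨l, (hmemC l).mpr hlw, hl⟩), rfl⟩
  rw [Nat.card_congr (Equiv.ofBijective f ⟨hinj, hsurj⟩).symm, Nat.card_prod]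

end Cfsg.Agent.Lib.Helper10.CS3
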