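import Mathlib
import Cfsg.Agent.Lib.Helper79.CS3.EndDefs

/-!
# CS3 (S4284), part END, package [SYLC]
-/

set_option autoImplicit false

namespace Cfsg.Agent.Lib.Helper10.CS3

open Cfsg.Agent.Lib.Helper81.CS3 Cfsg.Agent.Lib.Helper79.CS3

universe u

/-- Isomorphic groups have commutator subgroups of the same order. -/
theorem card_commutator_congr {A B : Type*} [Group A] [Group B] (e : A ≃* B) :
    Nat.card ↥(commutator B) = Nat.card ↥(commutator A) := by
  have h : commutator B = (commutator A).map e.toMonoidHom := by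
    rw [_root_.commutator_def, _root_.commutator_def, Subgroup.map_commutator,
      Subgroup.map_top_of_surjective _ e.surjective]
  rw [h, Subgroup.card_map_of_injective e.injective]

theorem pkgSylC : PkgSylC.{u} := by
  intro G _ _ p P hp hP hidx P'
  haveI : Fact p.Prime := ⟨hp⟩
  have hnd : ¬ p ∣ P.index := (Nat.Prime.coprime_iff_not_dvd hp).mp hidx.symm
  obtain ⟨g, hg⟩ := MulAction.exists_smul_eq G (hP.toSylow hnd) P'
  subst hg
  have e1 : ↥P ≃* ↥((hP.toSylow hnd : Sylow p G) : Subgroup G) :=
    MulEquiv.subgroupCongr (IsPGroup.toSylow_coe hP hnd).symm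
  have e2 := Sylow.equivSMul (hP.toSylow hnd) g
  exact card_commutator_congr (e1.trans e2)

end Cfsg.Agent.Lib.Helper10.CS3
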